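import Mathlib
import Cfsg.Agent.Lib.Helper44.SiegelGen

set_option autoImplicit false
open scoped commutatorElement

namespace Cfsg.Agent.Lib.Helper44.CHO

open Matrix Module Cfsg.Agent.Lib.Helper14 Cfsg.Agent.Lib.Helper44

variable {ι : Type} [Fintype ι] [DecidableEq ι] {F : Type*} [Field F]

/-- The Eichler matrix `x ↦ x + B(u,x) w - (B(w,x) + Q(w) B(u,x)) u`. -/
def eichMat (Q : QuadraticForm F (ι → F)) (u w : ι → F) : Matrix ι ι F :=
  1 + vecMulVec w (Cfsg.polarVec ⇑Q u) - vecMulVec u (Cfsg.polarVec ⇑Q w)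
    - Q w • vecMulVec u (Cfsg.polarVec ⇑Q u)

theorem eichMat_mulVec (Q : QuadraticForm F (ι → F)) (u w x : ι → F) :
    eichMat Q u w *ᵥ x = x + QuadraticMap.polar ⇑Q u x • w
      - (QuadraticMap.polar ⇑Q w x + Q w * QuadraticMap.polar ⇑Q u x) • u := by
  unfold eichMat
  rw [sub_mulVec, sub_mulVec, add_mulVec, one_mulVec, smul_mulVec, vecMulVec_mulVec,
    vecMulVec_mulVec, vecMulVec_mulVec, polarVec_dotProduct, polarVec_dotProduct]
  simp only [op_smul_eq_smul, smul_smul, add_smul]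
  abel

/-- The hyperbolic torus matrix `u ↦ a u`, `u' ↦ b u'` (`a b = 1`), identity on `⟨u,u'⟩^⊥`. -/
def torusMat (Q : QuadraticForm F (ι → F)) (u u' : ι → F) (a b : F) : Matrix ι ι F :=
  1 + (a - 1) • vecMulVec u (Cfsg.polarVec ⇑Q u') + (b - 1) • vecMulVec u' (Cfsg.polarVec ⇑Q u)

theorem torusMat_mulVec (Q : QuadraticForm F (ι → F)) (u u' : ι → F) (a b : F) (x : ι → F) :
    torusMat Q u u' a b *ᵥ x = x + ((a - 1) * QuadraticMap.polar ⇑Q u' x) • u
      + ((b - 1) * QuadraticMap.polar ⇑Q u x) • u' := by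
  unfold torusMat
  rw [add_mulVec, add_mulVec, one_mulVec, smul_mulVec, smul_mulVec, vecMulVec_mulVec,
    vecMulVec_mulVec, polarVec_dotProduct, polarVec_dotProduct]
  simp only [op_smul_eq_smul, smul_smul]

theorem eich_isom (Q : QuadraticForm F (ι → F)) {u w : ι → F} (hu : Q u = 0)
    (huw : QuadraticMap.polar ⇑Q u w = 0) (x : ι → F) :
    Q (eichMat Q u w *ᵥ x) = Q x := by
  have hwu : QuadraticMap.polar ⇑Q w u = 0 := by rw [QuadraticMap.polar_comm]; exact huw
  rw [eichMat_mulVec, quad_add_smul_sub_smul, hu, QuadraticMap.polar_comm (⇑Q) x w,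
    QuadraticMap.polar_comm (⇑Q) x u, hwu]
  ring

theorem eich_zero (Q : QuadraticForm F (ι → F)) (u : ι → F) : eichMat Q u 0 = 1 := by
  rw [ext_iff_mulVec]
  intro x
  rw [eichMat_mulVec, one_mulVec]
  simp

theorem eich_add (Q : QuadraticForm F (ι → F)) {u w w' : ι → F} (hu : Q u = 0)
    (huw : QuadraticMap.polar ⇑Q u w = 0) (huw' : QuadraticMap.polar ⇑Q u w' = 0) :
    eichMat Q u w * eichMat Q u w' = eichMat Q u (w + w') := by
  have huu : QuadraticMap.polar ⇑Q u u = 0 := by
    rw [QuadraticMap.polar_self, hu, smul_zero]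
  have hwu : QuadraticMap.polar ⇑Q w u = 0 := by rw [QuadraticMap.polar_comm]; exact huw
  rw [ext_iff_mulVec]
  intro x
  have hQ : Q (w + w') = Q w + Q w' + QuadraticMap.polar ⇑Q w w' :=
    QuadraticMap.map_add (⇑Q) w w'
  rw [← mulVec_mulVec, eichMat_mulVec, eichMat_mulVec, eichMat_mulVec, hQ]
  simp only [QuadraticMap.polar_add_right, QuadraticMap.polar_sub_right,
    QuadraticMap.polar_smul_right, QuadraticMap.polar_add_left, huu, huw', hwu,
    smul_eq_mul, mul_zero, add_zero, sub_zero]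
  ext i
  simp only [Pi.add_apply, Pi.sub_apply, Pi.smul_apply, smul_eq_mul]
  ring

theorem torus_isom (Q : QuadraticForm F (ι → F)) {u u' : ι → F} (hu : Q u = 0) (hu' : Q u' = 0)
    (huu' : QuadraticMap.polar ⇑Q u u' = 1) {a b : F} (hab : a * b = 1) (x : ι → F) :
    Q (torusMat Q u u' a b *ᵥ x) = Q x := by
  rw [torusMat_mulVec]
  have e : x + ((a - 1) * QuadraticMap.polar ⇑Q u' x) • u
      + ((b - 1) * QuadraticMap.polar ⇑Q u x) • u' =
      x + ((a - 1) * QuadraticMap.polar ⇑Q u' x) • u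
      - (-((b - 1) * QuadraticMap.polar ⇑Q u x)) • u' := by
    rw [neg_smul, sub_neg_eq_add]
  rw [e, quad_add_smul_sub_smul, hu, hu', QuadraticMap.polar_comm (⇑Q) x u,
    QuadraticMap.polar_comm (⇑Q) x u', huu']
  linear_combination (QuadraticMap.polar ⇑Q u x * QuadraticMap.polar ⇑Q u' x) * hab

theorem torus_mul_inv (Q : QuadraticForm F (ι → F)) {u u' : ι → F} (hu : Q u = 0)
    (hu' : Q u' = 0) (huu' : QuadraticMap.polar ⇑Q u u' = 1) {a b : F} (hab : a * b = 1) :
    torusMat Q u u' a b * torusMat Q u u' b a = 1 := by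
  have huu : QuadraticMap.polar ⇑Q u u = 0 := by
    rw [QuadraticMap.polar_self, hu, smul_zero]
  have hu'u' : QuadraticMap.polar ⇑Q u' u' = 0 := by
    rw [QuadraticMap.polar_self, hu', smul_zero]
  have hu'u : QuadraticMap.polar ⇑Q u' u = 1 := by rw [QuadraticMap.polar_comm]; exact huu'
  rw [ext_iff_mulVec]
  intro x
  rw [← mulVec_mulVec, torusMat_mulVec, torusMat_mulVec, one_mulVec]
  simp only [QuadraticMap.polar_add_right, QuadraticMap.polar_smul_right, huu, hu'u', huu', hu'u,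
    smul_eq_mul, mul_zero, add_zero, mul_one]
  ext i
  simp only [Pi.add_apply, Pi.smul_apply, smul_eq_mul]
  linear_combination (QuadraticMap.polar ⇑Q u' x * u i + QuadraticMap.polar ⇑Q u x * u' i) * hab

theorem torus_conj_eich (Q : QuadraticForm F (ι → F)) {u u' w : ι → F} (hu : Q u = 0)
    (hu' : Q u' = 0) (huu' : QuadraticMap.polar ⇑Q u u' = 1)
    (huw : QuadraticMap.polar ⇑Q u w = 0) (hu'w : QuadraticMap.polar ⇑Q u' w = 0)
    {a b : F} (hab : a * b = 1) :
    torusMat Q u u' a b * eichMat Q u w = eichMat Q u (a • w) * torusMat Q u u' a b := by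
  have huu : QuadraticMap.polar ⇑Q u u = 0 := by
    rw [QuadraticMap.polar_self, hu, smul_zero]
  have hu'u' : QuadraticMap.polar ⇑Q u' u' = 0 := by
    rw [QuadraticMap.polar_self, hu', smul_zero]
  have hu'u : QuadraticMap.polar ⇑Q u' u = 1 := by rw [QuadraticMap.polar_comm]; exact huu'
  have hwu : QuadraticMap.polar ⇑Q w u = 0 := by rw [QuadraticMap.polar_comm]; exact huw
  have hwu' : QuadraticMap.polar ⇑Q w u' = 0 := by rw [QuadraticMap.polar_comm]; exact hu'w
  rw [ext_iff_mulVec]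
  intro x
  rw [← mulVec_mulVec, ← mulVec_mulVec, eichMat_mulVec, torusMat_mulVec, torusMat_mulVec,
    eichMat_mulVec]
  simp only [QuadraticMap.polar_add_right, QuadraticMap.polar_sub_right,
    QuadraticMap.polar_smul_right, QuadraticMap.polar_smul_left, huu, huu', hu'u, huw,
    hu'w, hwu, hwu', QuadraticMap.map_smul, smul_eq_mul, mul_zero, add_zero, sub_zero, mul_one]
  ext i
  simp only [Pi.add_apply, Pi.sub_apply, Pi.smul_apply, smul_eq_mul]
  linear_combination (a * Q w * QuadraticMap.polar ⇑Q u x * u i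
    - QuadraticMap.polar ⇑Q u x * w i) * hab

/-- An element of the isometry group from a matrix with a given right inverse. -/
noncomputable def mkIso (Q : QuadraticForm F (ι → F)) (A B : Matrix ι ι F) (hAB : A * B = 1)
    (hA : ∀ x, Q (A *ᵥ x) = Q x) : ↥(Cfsg.isometryGroup F ⇑Q) :=
  ⟨⟨A, B, hAB, mul_eq_one_comm.mp hAB⟩, by
    rw [mem_isometryGroup_iff]
    intro x
    exact hA x⟩

theorem mkIso_coe (Q : QuadraticForm F (ι → F)) (A B : Matrix ι ι F) (hAB : A * B = 1)
    (hA : ∀ x, Q (A *ᵥ x) = Q x) :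
    (((mkIso Q A B hAB hA : ↥(Cfsg.isometryGroup F ⇑Q)) : Matrix.GeneralLinearGroup ι F) :
      Matrix ι ι F) = A := rfl

/-- **Torus trick.** Over a field with an element `a ≠ 0, 1`, every isometry acting as the
Eichler transformation `x ↦ x + B(u,x) w - (B(w,x) + Q(w) B(u,x)) u` (`u` singular with a
hyperbolic partner `u'`, `w ⊥ u, u'`; no nondegeneracy hypothesis, any characteristic) is a
commutator in the isometry group. -/
theorem eichler_mem_commutatorSet_of_torus (Q : QuadraticForm F (ι → F)) (u w u' : ι → F)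
    (hu : Q u = 0) (hu' : Q u' = 0) (huw : QuadraticMap.polar ⇑Q u w = 0)
    (hu'w : QuadraticMap.polar ⇑Q u' w = 0) (huu' : QuadraticMap.polar ⇑Q u u' = 1)
    (a : F) (ha0 : a ≠ 0) (ha1 : a ≠ 1) (g : ↥(Cfsg.isometryGroup F ⇑Q))
    (hg : ((g : Matrix.GeneralLinearGroup ι F) : Matrix ι ι F) = eichMat Q u w) :
    g ∈ commutatorSet ↥(Cfsg.isometryGroup F ⇑Q) := by
  have ha1' : a - 1 ≠ 0 := sub_ne_zero.mpr ha1
  obtain ⟨w', hw'⟩ : ∃ w' : ι → F, w' = (a - 1)⁻¹ • w := ⟨_, rfl⟩
  have hw : w = (a - 1) • w' := by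
    rw [hw', smul_smul, mul_inv_cancel₀ ha1', one_smul]
  have huw' : QuadraticMap.polar ⇑Q u w' = 0 := by
    rw [hw', QuadraticMap.polar_smul_right, huw, smul_zero]
  have hu'w' : QuadraticMap.polar ⇑Q u' w' = 0 := by
    rw [hw', QuadraticMap.polar_smul_right, hu'w, smul_zero]
  have huw'n : QuadraticMap.polar ⇑Q u (-w') = 0 := by
    rw [QuadraticMap.polar_neg_right, huw', neg_zero]
  have hab : a * a⁻¹ = 1 := mul_inv_cancel₀ ha0
  have hba : a⁻¹ * a = 1 := inv_mul_cancel₀ ha0
  have hsum : w + w' = a • w' := by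
    conv_lhs => rw [hw]
    rw [sub_smul, one_smul, sub_add_cancel]
  set g' : ↥(Cfsg.isometryGroup F ⇑Q) :=
    mkIso Q (eichMat Q u w') (eichMat Q u (-w'))
      (by rw [eich_add Q hu huw' huw'n, add_neg_cancel, eich_zero])
      (eich_isom Q hu huw') with hg'
  set h : ↥(Cfsg.isometryGroup F ⇑Q) :=
    mkIso Q (torusMat Q u u' a a⁻¹) (torusMat Q u u' a⁻¹ a) (torus_mul_inv Q hu hu' huu' hab)
      (torus_isom Q hu hu' huu' hab) with hh
  have key : g * g' * h = h * g' := by
    apply isom_ext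
    simp only [Subgroup.coe_mul, Units.val_mul, hg, hg', hh, mkIso_coe]
    rw [eich_add Q hu huw huw', hsum, torus_conj_eich Q hu hu' huu' huw' hu'w' hab]
  refine ⟨h, g', ?_⟩
  rw [commutatorElement_def, ← key]
  group

theorem siegelMatrix_eq_eichMat (Q : QuadraticForm F (ι → F)) (u v : ι → F) (c : F)
    (hv : Q v = 0) : Cfsg.siegelMatrix ⇑Q u v c = eichMat Q u (c • v) := by
  rw [ext_iff_mulVec]
  intro x
  rw [siegelMatrix_mulVec, eichMat_mulVec, QuadraticMap.map_smul, hv,
    QuadraticMap.polar_smul_left]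
  simp only [smul_eq_mul, mul_zero, zero_mul, add_zero, smul_smul]
  rw [mul_comm (QuadraticMap.polar (⇑Q) u x) c]

/-- Torus trick for Siegel elements `T_{u,v}(c)`: commutators as soon as `|F| > 2` (no
nondegeneracy hypothesis; `u'` a singular partner of `u` with `B(u,u') = 1`, `B(u',v) = 0`). -/
theorem siegel_mem_commutatorSet_of_torus (Q : QuadraticForm F (ι → F)) (u v u' : ι → F)
    (hu : Q u = 0) (hv : Q v = 0) (hu' : Q u' = 0) (huv : QuadraticMap.polar ⇑Q u v = 0)
    (hu'v : QuadraticMap.polar ⇑Q u' v = 0) (huu' : QuadraticMap.polar ⇑Q u u' = 1)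
    (a : F) (ha0 : a ≠ 0) (ha1 : a ≠ 1) (c : F) (g : ↥(Cfsg.isometryGroup F ⇑Q))
    (hg : ((g : Matrix.GeneralLinearGroup ι F) : Matrix ι ι F) = Cfsg.siegelMatrix ⇑Q u v c) :
    g ∈ commutatorSet ↥(Cfsg.isometryGroup F ⇑Q) := by
  apply eichler_mem_commutatorSet_of_torus Q u (c • v) u' hu hu' _ _ huu' a ha0 ha1 g
  · rw [hg, siegelMatrix_eq_eichMat Q u v c hv]
  · rw [QuadraticMap.polar_smul_right, huv, smul_zero]
  · rw [QuadraticMap.polar_smul_right, hu'v, smul_zero]

omit [DecidableEq ι] in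
/-- Existence of a singular hyperbolic partner `u'` of `u` orthogonal to `v` (nondegenerate
polar form, `u ∉ ⟨v⟩`, `u` singular). -/
theorem exists_partner (Q : QuadraticForm F (ι → F))
    (hQ : (QuadraticMap.polarBilin Q).Nondegenerate) (u v : ι → F) (hu : Q u = 0)
    (huv : QuadraticMap.polar ⇑Q u v = 0) (hdep : u ∉ Submodule.span F {v}) :
    ∃ u' : ι → F, Q u' = 0 ∧ QuadraticMap.polar ⇑Q u u' = 1 ∧ QuadraticMap.polar ⇑Q u' v = 0 := by
  obtain ⟨φ, hφu, hφv⟩ := Submodule.exists_dual_map_eq_bot_of_notMem hdep inferInstance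
  have hφv' : φ v = 0 := by
    have : φ v ∈ (Submodule.span F {v}).map φ :=
      Submodule.mem_map_of_mem (Submodule.mem_span_singleton_self v)
    rw [hφv] at this
    simpa using this
  set B := QuadraticMap.polarBilin Q with hB
  set w : ι → F := (LinearMap.BilinForm.toDual B hQ).symm ((φ u)⁻¹ • φ) with hw
  have hwx : ∀ x, QuadraticMap.polar ⇑Q w x = (φ u)⁻¹ * φ x := by
    intro x
    have := LinearMap.BilinForm.apply_toDual_symm_apply (B := B) (hB := hQ) ((φ u)⁻¹ • φ) x
    rw [LinearMap.smul_apply, smul_eq_mul] at this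
    exact this
  have hwu : QuadraticMap.polar ⇑Q w u = 1 := by rw [hwx, inv_mul_cancel₀ hφu]
  have hwv : QuadraticMap.polar ⇑Q w v = 0 := by rw [hwx, hφv', mul_zero]
  have huu : QuadraticMap.polar ⇑Q u u = 0 := by
    rw [QuadraticMap.polar_self, hu, smul_zero]
  refine ⟨w - Q w • u, ?_, ?_, ?_⟩
  · rw [quad_sub_smul, hu, hwu]; ring
  · rw [QuadraticMap.polar_comm, QuadraticMap.polar_sub_left, QuadraticMap.polar_smul_left, huu,
      hwu]; simp
  · rw [QuadraticMap.polar_sub_left, QuadraticMap.polar_smul_left, huv, hwv]; simp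

/-- **Siegel elements lie in `Ω(Q)` over EVERY field** (finite or not, any characteristic):
`Q` with nondegenerate polar form in dimension at least five. (Fields with more than two
elements: torus trick; the field with two elements: the finite-field theorem
`Helper44.siegelElt_mem_omega`.) -/
theorem siegel_mem_omega_anyField (Q : QuadraticForm F (ι → F))
    (hQ : (QuadraticMap.polarBilin Q).Nondegenerate) (h5 : 5 ≤ Fintype.card ι) (u v : ι → F)
    (hu : Q u = 0) (hv : Q v = 0) (huv : QuadraticMap.polar ⇑Q u v = 0) (c : F)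
    (g : ↥(Cfsg.isometryGroup F ⇑Q))
    (hg : ((g : Matrix.GeneralLinearGroup ι F) : Matrix ι ι F) = Cfsg.siegelMatrix ⇑Q u v c) :
    g ∈ Cfsg.Omega F ⇑Q := by
  by_cases hex : ∃ a : F, a ≠ 0 ∧ a ≠ 1
  · obtain ⟨a, ha0, ha1⟩ := hex
    by_cases hdep : u ∈ Submodule.span F {v}
    · obtain ⟨b, rfl⟩ := Submodule.mem_span_singleton.mp hdep
      have h1 : Cfsg.siegelMatrix ⇑Q (b • v) v c = 1 := by
        rw [ext_iff_mulVec]
        intro x
        rw [siegelMatrix_mulVec, QuadraticMap.polar_smul_left, one_mulVec, smul_smul, smul_eq_mul]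
        have e : c * QuadraticMap.polar (⇑Q) v x * b = c * (b * QuadraticMap.polar (⇑Q) v x) := by
          ring
        rw [e, add_sub_cancel_right]
      have hg1 : g = 1 := by
        apply isom_ext
        rw [hg, h1]; rfl
      rw [hg1]
      exact Subgroup.one_mem _
    · obtain ⟨u', hu', huu', hu'v⟩ := exists_partner Q hQ u v hu huv hdep
      obtain ⟨x, y, hxy⟩ :=
        siegel_mem_commutatorSet_of_torus Q u v u' hu hv hu' huv hu'v huu' a ha0 ha1 c g hg
      rw [← hxy]
      exact Subgroup.commutator_mem_commutator (Subgroup.mem_top _) (Subgroup.mem_top _)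
  · have hex' : ∀ a : F, a ≠ 0 → a = 1 := by
      intro a ha
      by_contra h1
      exact hex ⟨a, ha, h1⟩
    haveI : Finite F := by
      classical
      apply Finite.of_injective (fun a : F => (if a = 0 then (0 : Fin 2) else 1))
      intro a b hab
      dsimp only at hab
      by_cases ha : a = 0 <;> by_cases hb : b = 0
      · rw [ha, hb]
      · rw [if_pos ha, if_neg hb] at hab
        exact absurd hab (by decide)
      · rw [if_neg ha, if_pos hb] at hab
        exact absurd hab (by decide)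
      · rw [hex' a ha, hex' b hb]
    haveI : Fintype F := Fintype.ofFinite F
    have e : g = siegelElt Q hQ u v hu hv huv c := by
      apply isom_ext
      rw [hg, siegelElt_coe]
    rw [e]
    exact siegelElt_mem_omega Q hQ h5 u v hu hv huv c

end Cfsg.Agent.Lib.Helper44.CHO
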